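import Cfsg.Agent.Lib.Helper36.Stu.CDefs

/-!
# STU (S2318), Chevalley side: package CGLUE
-/

set_option autoImplicit false

namespace Cfsg.Agent.Lib.Helper80.Stu

open Cfsg Cfsg.Lie Cfsg.Agent.Lib.Helper18 Cfsg.Agent.Lib.Helper36 Cfsg.Agent.Lib.Helper36.Stu

universe u

theorem pkgCGlue : PkgCGlue.{u} := by
  intro hT F _ _ D hD f hf
  classical
  have hUG : D.posUnipotent F ≤ D.group F := posUnipotent_le_group D hD
  have hHG : D.diagonalSubgroup F ≤ D.group F := diagonalSubgroup_le_group D hD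
  have hext : ∀ (g : GL D.Idx F) (hg : g ∈ D.group F), ext D f g = f ⟨g, hg⟩ := by
    intro g hg
    unfold ext
    rw [dif_pos hg]
  have hmem : ∀ (u : GL D.Idx F) (hu : u ∈ D.posUnipotent F),
      (⟨u, hUG hu⟩ : ↥(D.group F)) ∈ (D.posUnipotent F).subgroupOf (D.group F) := by
    intro u hu
    exact Subgroup.mem_subgroupOf.mpr hu
  have htor : ∀ (h : GL D.Idx F) (hh : h ∈ D.diagonalSubgroup F),
      (∀ g : ↥(D.group F), f (⟨h, hHG hh⟩ * g) = f ⟨h, hHG hh⟩ * f g) ∧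
      (∀ g : ↥(D.group F), f (g * ⟨h, hHG hh⟩) = f g * f ⟨h, hHG hh⟩) ∧
      ‖f ⟨h, hHG hh⟩‖ = 1 := by
    intro h hh
    have hn := diagonalSubgroup_le_normalizer_posUnipotent D hD hh
    have hn' : h⁻¹ ∈ Subgroup.normalizer (D.posUnipotent F : Set (GL D.Idx F)) := inv_mem hn
    apply hT _ f hf
    · intro u hu
      rw [Subgroup.mem_subgroupOf] at hu ⊢
      simp only [Subgroup.coe_mul, Subgroup.coe_inv]
      exact Cfsg.Agent.Lib.Helper36.conj_mem_of_mem_normalizer _ hn hu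
    · intro u hu
      rw [Subgroup.mem_subgroupOf] at hu ⊢
      simp only [Subgroup.coe_mul, Subgroup.coe_inv]
      have h1 := Cfsg.Agent.Lib.Helper36.conj_mem_of_mem_normalizer _ hn' hu
      simpa using h1
  refine ⟨?_, ?_, ?_, ?_, ?_, ?_, ?_⟩
  · rw [hext 1 (one_mem _)]
    exact hf.one
  · intro g hg u hu
    rw [hext (u * g) (mul_mem (hUG hu) hg), hext g hg]
    exact hf.left ⟨g, hg⟩ ⟨u, hUG hu⟩ (hmem u hu)
  · intro g hg u hu
    rw [hext (g * u) (mul_mem hg (hUG hu)), hext g hg]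
    exact hf.right ⟨g, hg⟩ ⟨u, hUG hu⟩ (hmem u hu)
  · intro g hg g' hg'
    have h1 := hf.fe ⟨g, hg⟩ ⟨g', hg'⟩
    rw [hext g hg, hext g' hg']
    have hcard : Nat.card ↥((D.posUnipotent F).subgroupOf (D.group F)) =
        Nat.card ↥(D.posUnipotent F) :=
      Nat.card_congr (Subgroup.subgroupOfEquivOfLe hUG).toEquiv
    rw [← hcard, ← h1]
    rw [← finsum_comp_equiv (Subgroup.subgroupOfEquivOfLe hUG).toEquiv]
    apply finsum_congr
    intro u
    have hmem2 : g * ((u : ↥(D.group F)) : GL D.Idx F) * g' ∈ D.group F :=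
      mul_mem (mul_mem hg (u : ↥(D.group F)).2) hg'
    have e1 : ext D f (g * (((Subgroup.subgroupOfEquivOfLe hUG).toEquiv u :
        ↥(D.posUnipotent F)) : GL D.Idx F) * g') =
        ext D f (g * ((u : ↥(D.group F)) : GL D.Idx F) * g') := rfl
    rw [e1, hext _ hmem2]
    rfl
  · intro h hh g hg
    rw [hext (h * g) (mul_mem (hHG hh) hg), hext h (hHG hh), hext g hg]
    exact (htor h hh).1 ⟨g, hg⟩
  · intro h hh g hg
    rw [hext (g * h) (mul_mem hg (hHG hh)), hext h (hHG hh), hext g hg]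
    exact (htor h hh).2.1 ⟨g, hg⟩
  · intro h hh
    rw [hext h (hHG hh)]
    exact (htor h hh).2.2

end Cfsg.Agent.Lib.Helper80.Stu
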