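import Cfsg.Agent.Lib.Helper36.Stu.CDefs

/-!
# STU (S2318), Chevalley side: package CLB
-/

set_option autoImplicit false

namespace Cfsg.Agent.Lib.Helper80.Stu

open Cfsg Cfsg.Lie Cfsg.Agent.Lib.Helper18 Cfsg.Agent.Lib.Helper36 Cfsg.Agent.Lib.Helper36.Stu

universe u

theorem pkgCLb : PkgCLb.{u} := by
  intro hM F _ _ D hD hex χ hχ hvan
  classical
  obtain ⟨lam, g₀, hg₀, hmul, hone, htriv, hcov⟩ := hex
  have hUG : D.posUnipotent F ≤ D.group F := posUnipotent_le_group D hD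
  have hBG : D.borelSubgroup F ≤ D.group F := borelSubgroup_le_group D hD
  have hUB : D.posUnipotent F ≤ D.borelSubgroup F := le_sup_left
  have hHN := diagonalSubgroup_le_normalizer_posUnipotent (F := F) D hD
  have hBN : D.borelSubgroup F ≤ Subgroup.normalizer (D.posUnipotent F : Set (GL D.Idx F)) :=
    sup_le Subgroup.le_normalizer hHN
  have hcomm : ∀ b ∈ D.borelSubgroup F, ∀ b' ∈ D.borelSubgroup F,
      b * b' * b⁻¹ * b'⁻¹ ∈ D.posUnipotent F := by
    intro b hb b' hb'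
    obtain ⟨u, hu, h, hh, rfl⟩ :=
      Cfsg.Agent.Lib.Helper36.exists_mul_of_mem_sup _ _ hHN b hb
    obtain ⟨u', hu', h', hh', rfl⟩ :=
      Cfsg.Agent.Lib.Helper36.exists_mul_of_mem_sup _ _ hHN b' hb'
    have hc : h * h' = h' * h := by
      obtain ⟨c, -, e⟩ := diagonalSubgroup_eq_dvecL D hD h hh
      obtain ⟨c', -, e'⟩ := diagonalSubgroup_eq_dvecL D hD h' hh'
      apply Units.ext
      rw [Units.val_mul, Units.val_mul, e, e', Matrix.diagonal_mul_diagonal,
        Matrix.diagonal_mul_diagonal]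
      congr 1
      funext i
      exact mul_comm _ _
    have hc2 : h' * h⁻¹ = h⁻¹ * h' := by
      rw [eq_inv_mul_iff_mul_eq, ← mul_assoc, hc, mul_assoc, mul_inv_cancel, mul_one]
    have e : u * h * (u' * h') * (u * h)⁻¹ * (u' * h')⁻¹ =
        u * (h * u' * h⁻¹) * (h' * u⁻¹ * h'⁻¹) * u'⁻¹ := by
      calc u * h * (u' * h') * (u * h)⁻¹ * (u' * h')⁻¹
          = u * h * u' * (h' * h⁻¹) * u⁻¹ * h'⁻¹ * u'⁻¹ := by group
        _ = u * h * u' * (h⁻¹ * h') * u⁻¹ * h'⁻¹ * u'⁻¹ := by rw [hc2]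
        _ = _ := by group
    rw [e]
    exact mul_mem (mul_mem (mul_mem hu
      (Cfsg.Agent.Lib.Helper36.conj_mem_of_mem_normalizer _ (hHN hh) hu'))
      (Cfsg.Agent.Lib.Helper36.conj_mem_of_mem_normalizer _ (hHN hh') (inv_mem hu)))
      (inv_mem hu')
  apply hM ((D.posUnipotent F).subgroupOf (D.group F))
    ((D.borelSubgroup F).subgroupOf (D.group F)) (fun g => lam (g : GL D.Idx F)) ⟨g₀, hg₀⟩ χ
  · intro x hx
    rw [Subgroup.mem_subgroupOf] at hx ⊢
    exact hUB hx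
  · intro b hb u hu
    rw [Subgroup.mem_subgroupOf] at hb hu ⊢
    simp only [Subgroup.coe_mul, Subgroup.coe_inv]
    exact Cfsg.Agent.Lib.Helper36.conj_mem_of_mem_normalizer _ (hBN hb) hu
  · intro b hb b' hb'
    rw [Subgroup.mem_subgroupOf] at hb hb' ⊢
    simp only [Subgroup.coe_mul, Subgroup.coe_inv]
    exact hcomm _ hb _ hb'
  · intro u hu u' hu'
    rw [Subgroup.mem_subgroupOf] at hu hu'
    simp only [Subgroup.coe_mul]
    exact hmul _ hu _ hu'
  · simpa using hone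
  · intro u hu hb
    rw [Subgroup.mem_subgroupOf] at hu hb
    simp only [Subgroup.coe_mul, Subgroup.coe_inv] at hb
    apply Subtype.ext
    exact htriv _ hu hb
  · intro g
    rcases hcov g.1 g.2 with ⟨u, hu, b, hb, hg⟩ | ⟨u, hu, hc, hl⟩
    · left
      refine ⟨⟨u, hUG hu⟩, Subgroup.mem_subgroupOf.mpr hu, ⟨b, hBG hb⟩,
        Subgroup.mem_subgroupOf.mpr hb, ?_⟩
      apply Subtype.ext
      simpa using hg
    · right
      refine ⟨⟨u, hUG hu⟩, Subgroup.mem_subgroupOf.mpr hu, ?_, hl⟩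
      rw [Subgroup.mem_subgroupOf]
      simp only [Subgroup.coe_mul, Subgroup.coe_inv]
      exact hc
  · exact hχ
  · exact hvan

end Cfsg.Agent.Lib.Helper80.Stu
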